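import Cfsg.Agent.H455.HardAct
import Cfsg.Agent.H455.CentAct

/-!
# Noncyclic Sylow subgroups acting on a prime divisor of a normal subgroup (helper945)
-/

set_option autoImplicit false

namespace Cfsg.Agent.H945.SqRad

open Subgroup

/-- `s ∣ |K|`, `K ⊲ G`, `p ^ 2 ∣ |G / K|`: `G` has an element of order `p s` or `p ^ 2`. -/
theorem main {G : Type*} [Group G] [Finite G] (K : Subgroup G) [K.Normal] {p s : ℕ} (hp : p.Prime) (hs : s.Prime)
    (hps : p ≠ s) (hsK : s ∣ Nat.card ↥K) (h1 : ∀ g : G, orderOf g ≠ p * s) (h2 : ∀ g : G, orderOf g ≠ p ^ 2)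
    (hd : p ^ 2 ∣ Nat.card (G ⧸ K)) : False := by
  classical
  have hs' := Fact.mk hs
  obtain ⟨P⟩ : Nonempty (Sylow s ↥K) := inferInstance
  set P' : Subgroup G := (P : Subgroup ↥K).map K.subtype with hP'
  set N : Subgroup G := normalizer (P' : Set G) with hN
  have hNK : N ⊔ K = ⊤ := Sylow.normalizer_sup_eq_top P
  have hPp : IsPGroup s ↥P' := P.isPGroup'.map _
  have hpP : s ∣ Nat.card ↥P' := by
    rw [hP', Nat.card_congr ((P : Subgroup ↥K).equivMapOfInjective _ K.subtype_injective).symm.toEquiv]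
    exact P.dvd_card_of_dvd_card hsK
  have hP'K : P' ≤ K := by rw [hP']; exact Subgroup.map_subtype_le _
  have hle : P' ≤ N := le_normalizer
  set R : Subgroup ↥N := P'.subgroupOf N with hR
  have hRn : R.Normal := inferInstance
  have eR : ↥R ≃* ↥P' := subgroupOfEquivOfLe hle
  have hRp : IsPGroup s ↥R := hPp.of_equiv eR.symm
  have hsR : s ∣ Nat.card ↥R := by rw [Nat.card_congr eR.toEquiv]; exact hpP
  have hnil : Group.IsNilpotent ↥R := hRp.isNilpotent
  obtain ⟨V, _, _, φ, hV, -, -, hfix⟩ := H455.CentAct.exists_act R hnil hs hsR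
  -- the order of `N / R`
  have hdN : p ^ 2 ∣ Nat.card (↥N ⧸ R) := by
    let f : ↥N ⧸ R →* G ⧸ K := QuotientGroup.map R K N.subtype (by
      intro y hy
      rw [Subgroup.mem_comap]
      exact hP'K hy)
    have hf : Function.Surjective f := by
      intro q
      obtain ⟨g, rfl⟩ := QuotientGroup.mk_surjective q
      have hg : g ∈ N ⊔ K := by rw [hNK]; trivial
      rw [Subgroup.mem_sup_of_normal_right] at hg
      obtain ⟨n, hn, k, hk, rfl⟩ := hg
      refine ⟨QuotientGroup.mk ⟨n, hn⟩, ?_⟩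
      change ((n : G) : G ⧸ K) = ((n * k : G) : G ⧸ K)
      rw [QuotientGroup.eq]
      rw [inv_mul_cancel_left]
      exact hk
    exact hd.trans (Subgroup.card_dvd_of_surjective f hf)
  have hcop : p.Coprime s := (Nat.coprime_primes hp hs).2 hps
  refine H455.HardAct.sq_case hp hdN φ ?_ ?_ hV
  · intro x hx v hv
    refine hfix p hcop (fun g hg => h1 (g : G) (by rw [Subgroup.orderOf_coe, hg])) x hx v hv
  · intro x hx
    obtain ⟨y, rfl⟩ := QuotientGroup.mk_surjective x
    have hdvd : orderOf (y : ↥N ⧸ R) ∣ orderOf y := orderOf_map_dvd (QuotientGroup.mk' R) y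
    rw [hx] at hdvd
    refine h2 (((y : ↥N) : G) ^ (orderOf y / p ^ 2)) ?_
    rw [← Subgroup.coe_pow, Subgroup.orderOf_coe]
    exact orderOf_pow_orderOf_div (orderOf_pos y).ne' hdvd

end Cfsg.Agent.H945.SqRad
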